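import Cfsg.Agent.H915.PrimeField
import Cfsg.Agent.H915.FrobAct
import Cfsg.Agent.Lib.PGroupCoprimeAction

set_option autoImplicit false
set_option linter.unusedSectionVars false

/-!
# An element of prime order of a Singer cycle normalising a perfect subgroup

`K` a field subalgebra of `M_n(F)` of degree `n`, `n` an odd prime, `x ∈ K` of prime order `s`, not a scalar, `det x = 1`.
`P` a subgroup of the special linear group of even order normalised by `x`: then `s` divides `|P|` and `x ∈ P`.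
-/

namespace Cfsg.Agent.H915

open Matrix Cfsg Cfsg.Geo
open Cfsg.Agent.H907 (KU mem_KU isField_of card_K isCyclic_KU card_KU ext_mulVec)
open scoped MatrixGroups

variable {ι : Type} [Fintype ι] [DecidableEq ι] {F : Type*} [Field F]

section

variable {K : Subalgebra F (Matrix ι ι F)}

/-- An involution of `K` of determinant one is trivial (odd degree). -/
theorem eq_one_of_sq {r : ℕ} [Nonempty ι] (hodd : Odd (Fintype.card ι)) (hK : IsFieldSubalgebra r K) {h : GL ι F}
    (hh : (h : Matrix ι ι F) ∈ K) (h2 : h ^ 2 = 1) (hd : (h : Matrix ι ι F).det = 1) : h = 1 := by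
  have hdom : IsDomain K := (isField_of hK).isDomain
  let k : K := ⟨h, hh⟩
  have hk : k ^ 2 = 1 := Subtype.ext (congrArg (fun g : GL ι F => (g : Matrix ι ι F)) h2)
  have hk2 : (k - 1) * (k + 1) = 0 := by
    rw [sub_mul, mul_add, mul_one, one_mul, ← sq, hk, add_comm k 1, sub_self]
  have hk3 : k = 1 ∨ k = -1 := (mul_eq_zero.1 hk2).imp sub_eq_zero.1 eq_neg_of_add_eq_zero_left
  rcases hk3 with h1 | h1
  · exact Units.ext (congrArg Subtype.val h1)
  · have h3 : (h : Matrix ι ι F) = -1 := congrArg Subtype.val h1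
    rw [h3, Matrix.det_neg, Matrix.det_one, mul_one, hodd.neg_one_pow] at hd
    apply Units.ext
    rw [h3, Units.val_one]
    ext i j
    simp only [Matrix.neg_apply, Matrix.one_apply]
    split_ifs
    · exact hd
    · exact neg_zero

/-- A `2`-element of `K` of determinant one is trivial (odd degree). -/
theorem eq_one_of_two_pow {r : ℕ} [Nonempty ι] (hodd : Odd (Fintype.card ι)) (hK : IsFieldSubalgebra r K) {h : GL ι F}
    (hh : (h : Matrix ι ι F) ∈ K) (hd : (h : Matrix ι ι F).det = 1) {k : ℕ} (hk : h ^ 2 ^ k = 1) : h = 1 := by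
  induction k with
  | zero => simpa using hk
  | succ k ih =>
    apply ih
    refine eq_one_of_sq hodd hK (h := h ^ 2 ^ k) ?_ (by rw [← pow_mul, ← pow_succ]; exact hk) ?_
    · rw [Units.val_pow_eq_pow_val]; exact K.pow_mem hh _
    · rw [Units.val_pow_eq_pow_val, Matrix.det_pow, hd, one_pow]

end

section

variable {K : Subalgebra F (Matrix ι ι F)} [Fintype F] [Nonempty ι] (hn : (Fintype.card ι).Prime)
  (hK : IsFieldSubalgebra (Fintype.card ι) K) {x : GL ι F} {s : ℕ} (hs : s.Prime) (hxo : orderOf x = s)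
  (hxK : (x : Matrix ι ι F) ∈ K) (hns : ∀ c : F, (x : Matrix ι ι F) ≠ c • 1) {P : Subgroup (GL ι F)}
  (hPx : ∀ y ∈ P, x * y * x⁻¹ ∈ P)

include hxo hPx in
theorem zpowers_norm : ∀ b ∈ Subgroup.zpowers x, ∀ u ∈ P, b * u * b⁻¹ ∈ P := by
  have hpow : ∀ (k : ℕ), ∀ u ∈ P, x ^ k * u * (x ^ k)⁻¹ ∈ P := by
    intro k
    induction k with
    | zero => intro u hu; simpa using hu
    | succ k ih =>
      intro u hu
      have : x ^ (k + 1) * u * (x ^ (k + 1))⁻¹ = x * (x ^ k * u * (x ^ k)⁻¹) * x⁻¹ := by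
        rw [pow_succ']; group
      rw [this]
      exact hPx _ (ih u hu)
  intro b hb u hu
  have hfin : IsOfFinOrder x := isOfFinOrder_of_finite x
  obtain ⟨k, rfl⟩ := hfin.mem_powers_iff_mem_zpowers.2 hb
  exact hpow k u hu

include hn hK hs hxo hxK hns hPx in
/-- The order of `x` divides the order of `P`. -/
theorem dvd_card_of_two_dvd (hodd : Odd (Fintype.card ι)) (hPsl : P ≤ specialLinear ι F) (h2 : 2 ∣ Nat.card P) :
    s ∣ Nat.card P := by
  by_contra hnd
  have : Fact s.Prime := ⟨hs⟩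
  have hA : IsPGroup s (Subgroup.zpowers x) := IsPGroup.of_card (n := 1) (by rw [Nat.card_zpowers, hxo, pow_one])
  obtain ⟨S, ⟨T, hT⟩, hSx⟩ := Lib.PGroupCoprimeAction.exists_invariant_sylow hA hnd
    (zpowers_norm hxo hPx) 2
  have hS2 : IsPGroup 2 S := by
    rw [← hT]
    exact T.isPGroup'.map _
  have hSP : S ≤ P := by
    rw [← hT]
    exact Subgroup.map_subtype_le _
  have hbot : S = ⊥ := by
    refine eq_bot_of_isPGroup hS2 hs hxo
      (fun W hW => eq_bot_or_top hn hK hxK hns hW) (fun g hg => hSx x (Subgroup.mem_zpowers x) g hg) ?_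
    intro g hg hgx
    have hgK : (g : Matrix ι ι F) ∈ K := by
      refine mem_of_commute hn hK hxK hns ?_
      have := congrArg (fun z : GL ι F => (z : Matrix ι ι F)) hgx
      simpa using this
    obtain ⟨k, hk⟩ := hS2 ⟨g, hg⟩
    refine eq_one_of_two_pow hodd hK hgK ?_ (k := k) (congrArg Subtype.val hk)
    exact congrArg Units.val (MonoidHom.mem_ker.1 (hPsl (hSP hg)))
  have h4 : Nat.card T = 1 := by
    have h5 : (T : Subgroup P) = ⊥ := by
      rw [← Subgroup.map_eq_bot_iff_of_injective _ P.subtype_injective, hT, hbot]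
    rw [h5]
    exact Subgroup.card_bot
  have h6 := T.card_eq_multiplicity
  rw [h4] at h6
  have h7 : 0 < (Nat.card P).factorization 2 := by
    rw [Nat.pos_iff_ne_zero]
    intro h0
    rcases Nat.factorization_eq_zero_iff _ _ |>.1 h0 with h | h | h
    · exact h Nat.prime_two
    · exact h h2
    · exact Nat.card_pos.ne' h
  have h8 := Nat.one_lt_two_pow h7.ne'
  omega

include hn hK hs hxo hxK hns hPx in
/-- If `s` divides the order of `P` then `x ∈ P`. -/
theorem mem_of_dvd (hd : s ∣ Nat.card P) : x ∈ P := by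
  have : Fact s.Prime := ⟨hs⟩
  have hA : IsPGroup s (Subgroup.zpowers x) := IsPGroup.of_card (n := 1) (by rw [Nat.card_zpowers, hxo, pow_one])
  have hAP := zpowers_norm (x := x) hxo hPx
  let _ := Lib.PGroupCoprimeAction.conjAction (Subgroup.zpowers x) P hAP
  have h1 : ¬ s ∣ Nat.card (Sylow s P) := by
    intro h
    have h2 := card_sylow_modEq_one s P
    have h3 := (Nat.modEq_zero_iff_dvd.2 h).symm.trans h2
    have h4 := (Nat.modEq_iff_dvd' (by omega)).1 h3
    have := Nat.le_of_dvd one_pos (by simpa using h4)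
    exact hs.one_lt.not_ge this
  obtain ⟨T, hT⟩ := hA.nonempty_fixed_point_of_prime_not_dvd_card (Sylow s P) h1
  have hTx : ∀ b ∈ Subgroup.zpowers x, ∀ t ∈ T, ∀ hbt : b * (t : GL ι F) * b⁻¹ ∈ P, (⟨b * t * b⁻¹, hbt⟩ : P) ∈ T := by
    intro b hb t ht hbt
    have h1 : (⟨b, hb⟩ : Subgroup.zpowers x) • t ∈ ((⟨b, hb⟩ : Subgroup.zpowers x) • T : Sylow s P) := ⟨t, ht, rfl⟩
    rw [hT ⟨b, hb⟩] at h1
    exact h1
  -- the action on `T`
  let _ : MulAction (Subgroup.zpowers x) T :=
    { smul := fun b t => ⟨⟨b * (t : P) * (b : GL ι F)⁻¹, hAP b b.2 _ (t : P).2⟩, hTx b b.2 t t.2 _⟩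
      one_smul := fun t => Subtype.ext (Subtype.ext (by
        change (1 : GL ι F) * (t : P) * (1 : GL ι F)⁻¹ = (t : P); simp))
      mul_smul := fun b c t => Subtype.ext (Subtype.ext (by
        change ((b : GL ι F) * c) * (t : P) * ((b : GL ι F) * c)⁻¹ = b * (c * (t : P) * (c : GL ι F)⁻¹) * (b : GL ι F)⁻¹
        group)) }
  have hcT : s ∣ Nat.card T := by
    have h6 := T.card_eq_multiplicity
    change s ∣ Nat.card (T : Subgroup P)
    rw [h6]
    apply dvd_pow_self
    intro h0
    rcases Nat.factorization_eq_zero_iff _ _ |>.1 h0 with h | h | h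
    · exact h hs
    · exact h hd
    · exact Nat.card_pos.ne' h
  have hone : (1 : T) ∈ MulAction.fixedPoints (Subgroup.zpowers x) T := by
    intro b
    apply Subtype.ext
    apply Subtype.ext
    change (b : GL ι F) * 1 * (b : GL ι F)⁻¹ = 1
    simp
  obtain ⟨y, hy, hy1⟩ := hA.exists_fixed_point_of_prime_dvd_card_of_fixed_point T hcT hone
  have hyx : ((y : P) : GL ι F) * x = x * ((y : P) : GL ι F) := by
    have h1 : x * ((y : P) : GL ι F) * x⁻¹ = ((y : P) : GL ι F) :=
      congrArg (fun z : T => ((z : P) : GL ι F)) (hy ⟨x, Subgroup.mem_zpowers x⟩)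
    exact (mul_inv_eq_iff_eq_mul.1 h1).symm
  have hyK : (((y : P) : GL ι F) : Matrix ι ι F) ∈ K := by
    refine mem_of_commute hn hK hxK hns ?_
    have := congrArg (fun z : GL ι F => (z : Matrix ι ι F)) hyx
    simpa using this
  -- a power of `y` has order `s`
  have hys : s ∣ orderOf ((y : P) : GL ι F) := by
    have h1 : orderOf ((y : P) : GL ι F) = orderOf y := by
      rw [Subgroup.orderOf_coe, Subgroup.orderOf_coe]
    rw [h1]
    obtain ⟨k, hk⟩ := T.isPGroup' y
    have h2 := (Nat.dvd_prime_pow hs).1 (orderOf_dvd_of_pow_eq_one hk)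
    obtain ⟨j, -, hj⟩ := h2
    rw [hj]
    apply dvd_pow_self
    rintro rfl
    rw [pow_zero, orderOf_eq_one_iff] at hj
    exact hy1 hj.symm
  obtain ⟨m, hm⟩ := hys
  have hm0 : m ≠ 0 := by
    rintro rfl
    rw [mul_zero] at hm
    exact (orderOf_pos ((y : P) : GL ι F)).ne' hm
  have hz : orderOf (((y : P) : GL ι F) ^ m) = s := by
    rw [orderOf_pow_of_dvd hm0 ⟨s, by rw [hm, mul_comm]⟩, hm, Nat.mul_div_cancel _ (Nat.pos_of_ne_zero hm0)]
  have hzK : ((((y : P) : GL ι F) ^ m : GL ι F) : Matrix ι ι F) ∈ K := by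
    rw [Units.val_pow_eq_pow_val]
    exact K.pow_mem hyK _
  have h1 := H907.mem_zpowers_of_pow hK hxK hzK (by rw [hz, ← hxo, pow_orderOf_eq_one])
  exact (Subgroup.zpowers_le.2 (P.pow_mem (y : P).2 m)) h1

end

end Cfsg.Agent.H915
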